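import Cfsg.Agent.H15.M24c.D
import Cfsg.Agent.H15.Fi24
set_option autoImplicit false
set_option maxRecDepth 100000

namespace Cfsg.Agent.H15.M24c
open Cfsg.Agent.H15 Cfsg.Agent.H14

/-- the cocycle relation between two letters at a point -/
def CocAt (ap : ℕ → ℕ → ℕ) (ct : ℕ → ℕ) (adj L x a b : ℕ) : Prop :=
  (tb adj (a * L + b) = false →
    (fld (ct (ap x a)) b + fld (ct x) b) % 3 = (fld (ct (ap x b)) a + fld (ct x) a) % 3) ∧
  (tb adj (a * L + b) = true →
    (fld (ct (ap (ap x a) b)) a + (fld (ct (ap x b)) a + fld (ct x) a)) % 3 =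
      (fld (ct (ap (ap x b) a)) b + (fld (ct (ap x a)) b + fld (ct x) b)) % 3)

theorem ccChk_spec {ap : ℕ → ℕ → ℕ} {ct : ℕ → ℕ} {adj L x a : ℕ} {acc : QL}
    (h : ccChk ap ct (Nat.shiftRight adj (Nat.mul a L)) a (ap x a) (ct (ap x a)) (ct x) (fld (ct x) a) acc = true) {b : ℕ}
    (hb : acc.Has b (ap x b) (ct (ap x b))) : CocAt ap ct adj L x a b := by
  induction acc with
  | nil => exact hb.elim
  | cons b' o' r' t ih =>
    have h' := h
    unfold ccChk at h'
    simp only [frc_eq] at h'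
    rw [brec_and, Bool.and_eq_true, tb_shift] at h'
    rcases hb with ⟨rfl, rfl, rfl⟩ | hb
    · have h1 := h'.1
      constructor
      · intro e; rw [e] at h1; exact nbeq_iff.mp h1
      · intro e; rw [e] at h1; exact nbeq_iff.mp h1
    · exact ih h'.2 hb

theorem ccGo_spec {row ct : ℕ → ℕ} {W M adj L x : ℕ} (a : ℕ) : ∀ acc : QL,
    (∀ b, a ≤ b → b < L → x ≤ apR row W M x b → acc.Has b (apR row W M x b) (ct (apR row W M x b))) →
    ccGo row ct W M adj L x (row x) (ct x) a acc = true → ∀ c < a,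
      fld (ct (apR row W M x c)) c = fld (ct x) c ∧
      (x ≤ apR row W M x c → ∀ b, c < b → b < L → x ≤ apR row W M x b → CocAt (apR row W M) ct adj L x c b) := by
  induction a with
  | zero => intro _ _ _ c hc; omega
  | succ a ih =>
    intro acc hacc h c hc
    have h' : (Bool.rec false
        (Bool.rec (ccGo row ct W M adj L x (row x) (ct x) a acc)
          (Bool.rec false (ccGo row ct W M adj L x (row x) (ct x) a
            (.cons a (apR row W M x a) (ct (apR row W M x a)) acc))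
            (ccChk (apR row W M) ct (Nat.shiftRight adj (Nat.mul a L)) a (apR row W M x a) (ct (apR row W M x a)) (ct x)
              (fld (ct x) a) acc)) (Nat.ble x (apR row W M x a)))
        (Nat.beq (fld (ct (apR row W M x a)) a) (fld (ct x) a)) : Bool) = true := h
    rw [brec_and, Bool.and_eq_true, nbeq_iff] at h'
    obtain ⟨h1, h2⟩ := h'
    cases h3 : Nat.ble x (apR row W M x a) <;> rw [h3] at h2
    · have h4 := nble_false.mp h3
      rcases Nat.lt_succ_iff_lt_or_eq.mp hc with hc' | rfl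
      · refine ih acc (fun b hb hL hx => hacc b ?_ hL hx) h2 c hc'
        rcases Nat.eq_or_lt_of_le hb with rfl | hb'
        · omega
        · exact hb'
      · exact ⟨h1, fun hx => by omega⟩
    · rw [brec_and, Bool.and_eq_true] at h2
      rcases Nat.lt_succ_iff_lt_or_eq.mp hc with hc' | rfl
      · refine ih _ (fun b hb hL hx => ?_) h2.2 c hc'
        rcases Nat.eq_or_lt_of_le hb with rfl | hb'
        · exact Or.inl ⟨rfl, rfl, rfl⟩
        · exact Or.inr (hacc b hb' hL hx)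
      · exact ⟨h1, fun _ b hb hL hx => ccChk_spec h2.1 (hacc b hb hL hx)⟩

theorem ccAt_spec {row ct : ℕ → ℕ} {W M adj L x : ℕ} (h : ccAt row ct W M adj L x = true) : ∀ c < L,
    fld (ct (apR row W M x c)) c = fld (ct x) c ∧
      (x ≤ apR row W M x c → ∀ b, c < b → b < L → x ≤ apR row W M x b → CocAt (apR row W M) ct adj L x c b) :=
  ccGo_spec L .nil (fun b h1 h2 => by omega) h

section lift
variable (ap : ℕ → ℕ → ℕ) (ct : ℕ → ℕ)

/-- the lifted table -/
noncomputable def up (X l : ℕ) : ℕ := 3 * ap (X / 3) l + (fld (ct (X / 3)) l + 3 - X % 3) % 3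

theorem up_div (X l : ℕ) : up ap ct X l / 3 = ap (X / 3) l := by unfold up; omega
theorem up_mod (X l : ℕ) : up ap ct X l % 3 = (fld (ct (X / 3)) l + 3 - X % 3) % 3 := by unfold up; omega
theorem eq3 {a b : ℕ} (h1 : a / 3 = b / 3) (h2 : a % 3 = b % 3) : a = b := by omega

theorem tr_div (w : List ℕ) (X : ℕ) : tr (up ap ct) w X / 3 = tr ap w (X / 3) := by
  induction w generalizing X with
  | nil => rfl
  | cons a w ih => rw [tr_cons, tr_cons, ih, up_div]

variable {ap ct}

theorem up_pair {adj L X a b : ℕ} (h1 : PairAt ap adj L (X / 3) a b) (h2 : CocAt ap ct adj L (X / 3) a b) :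
    PairAt (up ap ct) adj L X a b := by
  refine ⟨fun e => eq3 ?_ ?_, fun e => eq3 ?_ ?_⟩
  · simp only [up_div]; exact h1.1 e
  · have := h2.1 e
    simp only [up_mod, up_div]; omega
  · simp only [up_div]; exact h1.2 e
  · have := h2.2 e
    simp only [up_mod, up_div]; omega

/-- the translation of the fibres -/
def zt (n : ℕ) : Equiv.Perm (Fin (3 * n)) where
  toFun p := ⟨3 * (p / 3) + (p + 1) % 3, by omega⟩
  invFun p := ⟨3 * (p / 3) + (p + 2) % 3, by omega⟩
  left_inv p := Fin.ext (by simp only; omega)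
  right_inv p := Fin.ext (by simp only; omega)

theorem zt_val {n : ℕ} (p : Fin (3 * n)) : (zt n p : ℕ) = 3 * (p / 3) + (p + 1) % 3 := rfl

theorem zt3 (n : ℕ) : zt n ^ 3 = 1 := Equiv.ext fun p => Fin.ext (by
  simp only [pow_three, Equiv.Perm.mul_apply, zt_val, Equiv.Perm.one_apply]; omega)

theorem fib {n : ℕ} {p q : Fin (3 * n)} (h : (q : ℕ) / 3 = p / 3) : ∃ i : ℕ, q = (zt n ^ i) p := by
  have : (q : ℕ) = p ∨ (q : ℕ) = zt n p ∨ (q : ℕ) = zt n (zt n p) := by simp only [zt_val]; omega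
  rcases this with a | a | a
  exacts [⟨0, Fin.ext a⟩, ⟨1, Fin.ext a⟩, ⟨2, Fin.ext a⟩]

theorem zt_div {n : ℕ} (i : ℕ) (p : Fin (3 * n)) : ((zt n ^ i) p : ℕ) / 3 = p / 3 := by
  induction i with
  | zero => rfl
  | succ i ih => rw [pow_succ', Equiv.Perm.mul_apply, zt_val]; omega

theorem gauge {n : ℕ} {g : Equiv.Perm (Fin (3 * n))} (hc : Commute g (zt n)) (h : ∀ p, (g p : ℕ) / 3 = p / 3) :
    g ^ 3 = 1 := Equiv.ext fun p => by
  obtain ⟨i, e⟩ := fib (h p)
  have c : ∀ q, g ((zt n ^ i) q) = (zt n ^ i) (g q) := fun q => DFunLike.congr_fun (hc.pow_right i).eq q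
  simp only [pow_three, Equiv.Perm.mul_apply, e, c]
  rw [← Equiv.Perm.mul_apply, ← Equiv.Perm.mul_apply, ← pow_three', ← pow_mul, mul_comm i 3, pow_mul, zt3, one_pow]

theorem gauge0 {n : ℕ} {g : Equiv.Perm (Fin (3 * n))} (hc : Commute g (zt n)) (k : ℕ)
    (h : ∀ p, ((g ^ k) p : ℕ) / 3 = p / 3) (h0 : ∀ p : Fin (3 * n), (p : ℕ) % 3 = 0 → (g p : ℕ) % 3 = 0) : g ^ k = 1 :=
  Equiv.ext fun p => by
    have a : ∀ j, ∀ p : Fin (3 * n), (p : ℕ) % 3 = 0 → ((g ^ j) p : ℕ) % 3 = 0 := fun j => by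
      induction j with
      | zero => exact fun _ => id
      | succ j ih => exact fun p b => pow_succ' g j ▸ h0 _ (ih p b)
    obtain ⟨i, e⟩ := fib (q := p) (p := ⟨3 * (p / 3), by omega⟩) (by simp only; omega)
    rw [e]
    refine (DFunLike.congr_fun (hc.pow_pow k i).eq _).trans (congrArg (zt n ^ i) (Fin.ext (eq3 (h _) ?_)))
    rw [a k _ (by simp)]; simp

end lift

end Cfsg.Agent.H15.M24c
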