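import Cfsg.Agent.H15.M24c.T
import Cfsg.Agent.H15.Cox
import Cfsg.Agent.H15.F24a.P
set_option autoImplicit false
set_option maxRecDepth 100000

namespace Cfsg.Agent.H15.M24c
open Cfsg.Agent.H15 Cfsg.Agent.H14

/-- a two bit field -/
noncomputable def fld (c l : ℕ) : ℕ := Nat.land (Nat.shiftRight c (Nat.mul l 2)) 3

/-- check the cocycle of one letter against the stored ones -/
noncomputable def ccChk (ap : ℕ → ℕ → ℕ) (ct : ℕ → ℕ) (adjA a y cy cx ca : ℕ) (acc : QL) : Bool :=
  QL.rec (motive := fun _ => Bool) true (fun b z cz _ ih => Bool.rec false ih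
    (frc (Nat.add (fld cy b) (fld cx b)) fun s => frc (Nat.add (fld cz a) ca) fun t =>
      Bool.rec (Nat.beq (Nat.mod s 3) (Nat.mod t 3))
        (frc (ap y b) fun u => frc (ap z a) fun v =>
          Nat.beq (Nat.mod (Nat.add (fld (ct u) a) t) 3) (Nat.mod (Nat.add (fld (ct v) b) s) 3))
        (Nat.beq (Nat.land (Nat.shiftRight adjA b) 1) 1))) acc

/-- the loop over the letters -/
noncomputable def ccGo (row ct : ℕ → ℕ) (W M adj L x rx cx a : ℕ) : QL → Bool :=
  Nat.rec (motive := fun _ => QL → Bool) (fun _ => true)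
    (fun a ih acc => frc (Nat.land (Nat.shiftRight rx (Nat.mul a W)) M) fun y =>
      frc (ct y) fun cy => frc (fld cx a) fun ca => Bool.rec false
        (Bool.rec (ih acc) (frc (Nat.shiftRight adj (Nat.mul a L)) fun adjA =>
          Bool.rec false (ih (.cons a y cy acc)) (ccChk (apR row W M) ct adjA a y cy cx ca acc)) (Nat.ble x y))
        (Nat.beq (fld cy a) ca)) a

noncomputable def ccAt (row ct : ℕ → ℕ) (W M adj L x : ℕ) : Bool :=
  frc (row x) fun rx => frc (ct x) fun cx => ccGo row ct W M adj L x rx cx L .nil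

/-- the action on the triple cover -/
noncomputable def ap2 (X l : ℕ) : ℕ := frcN (Nat.div X 3) fun x =>
  Nat.add (Nat.mul 3 (F24a.ap x l)) (Nat.mod (Nat.sub (Nat.add (fld (crow x) l) 3) (Nat.mod X 3)) 3)

noncomputable def ck (x : ℕ) : Bool :=
  Bool.rec false (Nat.beq (Nat.mod (tr ap2 [nat_lit 3, nat_lit 2, nat_lit 1, nat_lit 0, nat_lit 10, nat_lit 11, nat_lit 3, nat_lit 4,
      nat_lit 5, nat_lit 6, nat_lit 9, nat_lit 3, nat_lit 7, nat_lit 8] (Nat.mul 3 x)) 3) 2)
    (ccAt F24a.row crow (nat_lit 28) (nat_lit 524287) (nat_lit 2722258935372461885789573603201923433474) (nat_lit 12) x)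

end Cfsg.Agent.H15.M24c
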