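import Cfsg.Agent.H15.M24c.E
set_option autoImplicit false
set_option maxRecDepth 100000

namespace Cfsg.Agent.H15.M24c
open Cfsg.Agent.H15 Cfsg.Agent.H14

set_option Elab.async false
theorem hrk0_0 : RAll (rk) 0 10000 := RAll.of (by decide +kernel)
theorem hrk0_10000 : RAll (rk) 10000 20000 := RAll.of (by decide +kernel)
theorem hrk0_20000 : RAll (rk) 20000 30000 := RAll.of (by decide +kernel)
theorem hrk0_30000 : RAll (rk) 30000 40000 := RAll.of (by decide +kernel)
theorem hrk0_40000 : RAll (rk) 40000 50000 := RAll.of (by decide +kernel)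
theorem hrk0_50000 : RAll (rk) 50000 60000 := RAll.of (by decide +kernel)
theorem hrk0_60000 : RAll (rk) 60000 70000 := RAll.of (by decide +kernel)
theorem hrk0_70000 : RAll (rk) 70000 80000 := RAll.of (by decide +kernel)
theorem hrk0_80000 : RAll (rk) 80000 90000 := RAll.of (by decide +kernel)
theorem hrk0_90000 : RAll (rk) 90000 100000 := RAll.of (by decide +kernel)
theorem hrk0_100000 : RAll (rk) 100000 110000 := RAll.of (by decide +kernel)
theorem hrk0 : RAll (rk) 0 110000 :=
  (RAll.append (RAll.append (RAll.append hrk0_0 hrk0_10000) (RAll.append hrk0_20000 (RAll.append hrk0_30000 hrk0_40000))) (RAll.append (RAll.append hrk0_50000 (RAll.append hrk0_60000 hrk0_70000)) (RAll.append hrk0_80000 (RAll.append hrk0_90000 hrk0_100000))))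

end Cfsg.Agent.H15.M24c
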