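import Cfsg.Agent.H15.M24c.E
set_option autoImplicit false
set_option maxRecDepth 100000

namespace Cfsg.Agent.H15.M24c
open Cfsg.Agent.H15 Cfsg.Agent.H14

set_option Elab.async false
theorem hrk1_110000 : RAll (rk) 110000 120000 := RAll.of (by decide +kernel)
theorem hrk1_120000 : RAll (rk) 120000 130000 := RAll.of (by decide +kernel)
theorem hrk1_130000 : RAll (rk) 130000 140000 := RAll.of (by decide +kernel)
theorem hrk1_140000 : RAll (rk) 140000 150000 := RAll.of (by decide +kernel)
theorem hrk1_150000 : RAll (rk) 150000 160000 := RAll.of (by decide +kernel)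
theorem hrk1_160000 : RAll (rk) 160000 170000 := RAll.of (by decide +kernel)
theorem hrk1_170000 : RAll (rk) 170000 180000 := RAll.of (by decide +kernel)
theorem hrk1_180000 : RAll (rk) 180000 190000 := RAll.of (by decide +kernel)
theorem hrk1_190000 : RAll (rk) 190000 200000 := RAll.of (by decide +kernel)
theorem hrk1_200000 : RAll (rk) 200000 210000 := RAll.of (by decide +kernel)
theorem hrk1 : RAll (rk) 110000 210000 :=
  (RAll.append (RAll.append (RAll.append hrk1_110000 hrk1_120000) (RAll.append hrk1_130000 (RAll.append hrk1_140000 hrk1_150000))) (RAll.append (RAll.append hrk1_160000 hrk1_170000) (RAll.append hrk1_180000 (RAll.append hrk1_190000 hrk1_200000))))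

end Cfsg.Agent.H15.M24c
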