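import Cfsg.Agent.H15.M24c.E
set_option autoImplicit false
set_option maxRecDepth 100000

namespace Cfsg.Agent.H15.M24c
open Cfsg.Agent.H15 Cfsg.Agent.H14

set_option Elab.async false
theorem hrk2_210000 : RAll (rk) 210000 220000 := RAll.of (by decide +kernel)
theorem hrk2_220000 : RAll (rk) 220000 230000 := RAll.of (by decide +kernel)
theorem hrk2_230000 : RAll (rk) 230000 240000 := RAll.of (by decide +kernel)
theorem hrk2_240000 : RAll (rk) 240000 250000 := RAll.of (by decide +kernel)
theorem hrk2_250000 : RAll (rk) 250000 260000 := RAll.of (by decide +kernel)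
theorem hrk2_260000 : RAll (rk) 260000 270000 := RAll.of (by decide +kernel)
theorem hrk2_270000 : RAll (rk) 270000 280000 := RAll.of (by decide +kernel)
theorem hrk2_280000 : RAll (rk) 280000 290000 := RAll.of (by decide +kernel)
theorem hrk2_290000 : RAll (rk) 290000 300000 := RAll.of (by decide +kernel)
theorem hrk2_300000 : RAll (rk) 300000 306936 := RAll.of (by decide +kernel)
theorem hrk2 : RAll (rk) 210000 306936 :=
  (RAll.append (RAll.append (RAll.append hrk2_210000 hrk2_220000) (RAll.append hrk2_230000 (RAll.append hrk2_240000 hrk2_250000))) (RAll.append (RAll.append hrk2_260000 hrk2_270000) (RAll.append hrk2_280000 (RAll.append hrk2_290000 hrk2_300000))))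

end Cfsg.Agent.H15.M24c
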