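import Cfsg.Agent.H15.M24c.E
set_option autoImplicit false
set_option maxRecDepth 100000

namespace Cfsg.Agent.H15.M24c
open Cfsg.Agent.H15 Cfsg.Agent.H14

set_option Elab.async false
theorem cn2 : RAll (connAt F24a.ap g9 2) 3 3512 := RAll.of (by decide +kernel)
theorem cn3_3513 : RAll (connAt F24a.ap g9 3512) 3513 11513 := RAll.of (by decide +kernel)
theorem cn3_11513 : RAll (connAt F24a.ap g9 3512) 11513 19513 := RAll.of (by decide +kernel)
theorem cn3_19513 : RAll (connAt F24a.ap g9 3512) 19513 27513 := RAll.of (by decide +kernel)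
theorem cn3_27513 : RAll (connAt F24a.ap g9 3512) 27513 31672 := RAll.of (by decide +kernel)
theorem cn3 : RAll (connAt F24a.ap g9 3512) 3513 31672 :=
  (RAll.append (RAll.append cn3_3513 cn3_11513) (RAll.append cn3_19513 cn3_27513))
theorem orbk : orbsF (nG.map (tr F24a.ap)) 1100 (fun U => rall (fun x => !Nat.beq (F24a.ap x 10) x || tb U x) 1 31672 512) [1, 23904, 22493] 0 = true := by
  decide +kernel

end Cfsg.Agent.H15.M24c
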