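import Cfsg.Agent.H15.M24c.D
set_option autoImplicit false
set_option maxRecDepth 100000
set_option Elab.async false

namespace Cfsg.Agent.H15.M24c
open Cfsg.Agent.H15 Cfsg.Agent.H14

theorem hck_f1_16000 : RAll (ck) 16000 18000 := RAll.of (by decide +kernel)
theorem hck_f1_18000 : RAll (ck) 18000 20000 := RAll.of (by decide +kernel)
theorem hck_f1_20000 : RAll (ck) 20000 22000 := RAll.of (by decide +kernel)
theorem hck_f1_22000 : RAll (ck) 22000 24000 := RAll.of (by decide +kernel)
theorem hck_f1_24000 : RAll (ck) 24000 26000 := RAll.of (by decide +kernel)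
theorem hck_f1_26000 : RAll (ck) 26000 28000 := RAll.of (by decide +kernel)
theorem hck_f1_28000 : RAll (ck) 28000 30000 := RAll.of (by decide +kernel)
theorem hck_f1_30000 : RAll (ck) 30000 32000 := RAll.of (by decide +kernel)
theorem hck_f1 : RAll (ck) 16000 32000 :=
  (RAll.append (RAll.append (RAll.append hck_f1_16000 hck_f1_18000) (RAll.append hck_f1_20000 hck_f1_22000)) (RAll.append (RAll.append hck_f1_24000 hck_f1_26000) (RAll.append hck_f1_28000 hck_f1_30000)))

end Cfsg.Agent.H15.M24c
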