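import Cfsg.Agent.H15.M24c.D
set_option autoImplicit false
set_option maxRecDepth 100000
set_option Elab.async false

namespace Cfsg.Agent.H15.M24c
open Cfsg.Agent.H15 Cfsg.Agent.H14

theorem hck_f10_160000 : RAll (ck) 160000 162000 := RAll.of (by decide +kernel)
theorem hck_f10_162000 : RAll (ck) 162000 164000 := RAll.of (by decide +kernel)
theorem hck_f10_164000 : RAll (ck) 164000 166000 := RAll.of (by decide +kernel)
theorem hck_f10_166000 : RAll (ck) 166000 168000 := RAll.of (by decide +kernel)
theorem hck_f10_168000 : RAll (ck) 168000 170000 := RAll.of (by decide +kernel)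
theorem hck_f10_170000 : RAll (ck) 170000 172000 := RAll.of (by decide +kernel)
theorem hck_f10_172000 : RAll (ck) 172000 174000 := RAll.of (by decide +kernel)
theorem hck_f10_174000 : RAll (ck) 174000 176000 := RAll.of (by decide +kernel)
theorem hck_f10 : RAll (ck) 160000 176000 :=
  (RAll.append (RAll.append (RAll.append hck_f10_160000 hck_f10_162000) (RAll.append hck_f10_164000 hck_f10_166000)) (RAll.append (RAll.append hck_f10_168000 hck_f10_170000) (RAll.append hck_f10_172000 hck_f10_174000)))

end Cfsg.Agent.H15.M24c
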