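import Cfsg.Agent.H15.M24c.D
set_option autoImplicit false
set_option maxRecDepth 100000
set_option Elab.async false

namespace Cfsg.Agent.H15.M24c
open Cfsg.Agent.H15 Cfsg.Agent.H14

theorem hck_f11_176000 : RAll (ck) 176000 178000 := RAll.of (by decide +kernel)
theorem hck_f11_178000 : RAll (ck) 178000 180000 := RAll.of (by decide +kernel)
theorem hck_f11_180000 : RAll (ck) 180000 182000 := RAll.of (by decide +kernel)
theorem hck_f11_182000 : RAll (ck) 182000 184000 := RAll.of (by decide +kernel)
theorem hck_f11_184000 : RAll (ck) 184000 186000 := RAll.of (by decide +kernel)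
theorem hck_f11_186000 : RAll (ck) 186000 188000 := RAll.of (by decide +kernel)
theorem hck_f11_188000 : RAll (ck) 188000 190000 := RAll.of (by decide +kernel)
theorem hck_f11_190000 : RAll (ck) 190000 192000 := RAll.of (by decide +kernel)
theorem hck_f11 : RAll (ck) 176000 192000 :=
  (RAll.append (RAll.append (RAll.append hck_f11_176000 hck_f11_178000) (RAll.append hck_f11_180000 hck_f11_182000)) (RAll.append (RAll.append hck_f11_184000 hck_f11_186000) (RAll.append hck_f11_188000 hck_f11_190000)))

end Cfsg.Agent.H15.M24c
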