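import Cfsg.Agent.H15.M24c.D
set_option autoImplicit false
set_option maxRecDepth 100000

namespace Cfsg.Agent.H15.M24c
open Cfsg.Agent.H15 Cfsg.Agent.H14

theorem hck_f12_192000 : RAll (ck) 192000 194000 := RAll.of (by decide +kernel)
theorem hck_f12_194000 : RAll (ck) 194000 196000 := RAll.of (by decide +kernel)
theorem hck_f12_196000 : RAll (ck) 196000 198000 := RAll.of (by decide +kernel)
theorem hck_f12_198000 : RAll (ck) 198000 200000 := RAll.of (by decide +kernel)
theorem hck_f12_200000 : RAll (ck) 200000 202000 := RAll.of (by decide +kernel)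
theorem hck_f12_202000 : RAll (ck) 202000 204000 := RAll.of (by decide +kernel)
theorem hck_f12_204000 : RAll (ck) 204000 206000 := RAll.of (by decide +kernel)
theorem hck_f12_206000 : RAll (ck) 206000 208000 := RAll.of (by decide +kernel)
theorem hck_f12 : RAll (ck) 192000 208000 :=
  (RAll.append (RAll.append (RAll.append hck_f12_192000 hck_f12_194000) (RAll.append hck_f12_196000 hck_f12_198000)) (RAll.append (RAll.append hck_f12_200000 hck_f12_202000) (RAll.append hck_f12_204000 hck_f12_206000)))

end Cfsg.Agent.H15.M24c
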