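import Cfsg.Agent.H15.M24c.D
set_option autoImplicit false
set_option maxRecDepth 100000
set_option Elab.async false

namespace Cfsg.Agent.H15.M24c
open Cfsg.Agent.H15 Cfsg.Agent.H14

theorem hck_f13_208000 : RAll (ck) 208000 210000 := RAll.of (by decide +kernel)
theorem hck_f13_210000 : RAll (ck) 210000 212000 := RAll.of (by decide +kernel)
theorem hck_f13_212000 : RAll (ck) 212000 214000 := RAll.of (by decide +kernel)
theorem hck_f13_214000 : RAll (ck) 214000 216000 := RAll.of (by decide +kernel)
theorem hck_f13_216000 : RAll (ck) 216000 218000 := RAll.of (by decide +kernel)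
theorem hck_f13_218000 : RAll (ck) 218000 220000 := RAll.of (by decide +kernel)
theorem hck_f13_220000 : RAll (ck) 220000 222000 := RAll.of (by decide +kernel)
theorem hck_f13_222000 : RAll (ck) 222000 224000 := RAll.of (by decide +kernel)
theorem hck_f13 : RAll (ck) 208000 224000 :=
  (RAll.append (RAll.append (RAll.append hck_f13_208000 hck_f13_210000) (RAll.append hck_f13_212000 hck_f13_214000)) (RAll.append (RAll.append hck_f13_216000 hck_f13_218000) (RAll.append hck_f13_220000 hck_f13_222000)))

end Cfsg.Agent.H15.M24c
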