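import Cfsg.Agent.H15.M24c.D
set_option autoImplicit false
set_option maxRecDepth 100000
set_option Elab.async false

namespace Cfsg.Agent.H15.M24c
open Cfsg.Agent.H15 Cfsg.Agent.H14

theorem hck_f14_224000 : RAll (ck) 224000 226000 := RAll.of (by decide +kernel)
theorem hck_f14_226000 : RAll (ck) 226000 228000 := RAll.of (by decide +kernel)
theorem hck_f14_228000 : RAll (ck) 228000 230000 := RAll.of (by decide +kernel)
theorem hck_f14_230000 : RAll (ck) 230000 232000 := RAll.of (by decide +kernel)
theorem hck_f14_232000 : RAll (ck) 232000 234000 := RAll.of (by decide +kernel)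
theorem hck_f14_234000 : RAll (ck) 234000 236000 := RAll.of (by decide +kernel)
theorem hck_f14_236000 : RAll (ck) 236000 238000 := RAll.of (by decide +kernel)
theorem hck_f14_238000 : RAll (ck) 238000 240000 := RAll.of (by decide +kernel)
theorem hck_f14 : RAll (ck) 224000 240000 :=
  (RAll.append (RAll.append (RAll.append hck_f14_224000 hck_f14_226000) (RAll.append hck_f14_228000 hck_f14_230000)) (RAll.append (RAll.append hck_f14_232000 hck_f14_234000) (RAll.append hck_f14_236000 hck_f14_238000)))

end Cfsg.Agent.H15.M24c
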