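import Cfsg.Agent.H15.M24c.D
set_option autoImplicit false
set_option maxRecDepth 100000

namespace Cfsg.Agent.H15.M24c
open Cfsg.Agent.H15 Cfsg.Agent.H14

theorem hck_f16_256000 : RAll (ck) 256000 258000 := RAll.of (by decide +kernel)
theorem hck_f16_258000 : RAll (ck) 258000 260000 := RAll.of (by decide +kernel)
theorem hck_f16_260000 : RAll (ck) 260000 262000 := RAll.of (by decide +kernel)
theorem hck_f16_262000 : RAll (ck) 262000 264000 := RAll.of (by decide +kernel)
theorem hck_f16_264000 : RAll (ck) 264000 266000 := RAll.of (by decide +kernel)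
theorem hck_f16_266000 : RAll (ck) 266000 268000 := RAll.of (by decide +kernel)
theorem hck_f16_268000 : RAll (ck) 268000 270000 := RAll.of (by decide +kernel)
theorem hck_f16_270000 : RAll (ck) 270000 272000 := RAll.of (by decide +kernel)
theorem hck_f16 : RAll (ck) 256000 272000 :=
  (RAll.append (RAll.append (RAll.append hck_f16_256000 hck_f16_258000) (RAll.append hck_f16_260000 hck_f16_262000)) (RAll.append (RAll.append hck_f16_264000 hck_f16_266000) (RAll.append hck_f16_268000 hck_f16_270000)))

end Cfsg.Agent.H15.M24c
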