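import Cfsg.Agent.H15.M24c.D
set_option autoImplicit false
set_option maxRecDepth 100000

namespace Cfsg.Agent.H15.M24c
open Cfsg.Agent.H15 Cfsg.Agent.H14

theorem hck_f17_272000 : RAll (ck) 272000 274000 := RAll.of (by decide +kernel)
theorem hck_f17_274000 : RAll (ck) 274000 276000 := RAll.of (by decide +kernel)
theorem hck_f17_276000 : RAll (ck) 276000 278000 := RAll.of (by decide +kernel)
theorem hck_f17_278000 : RAll (ck) 278000 280000 := RAll.of (by decide +kernel)
theorem hck_f17_280000 : RAll (ck) 280000 282000 := RAll.of (by decide +kernel)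
theorem hck_f17_282000 : RAll (ck) 282000 284000 := RAll.of (by decide +kernel)
theorem hck_f17_284000 : RAll (ck) 284000 286000 := RAll.of (by decide +kernel)
theorem hck_f17_286000 : RAll (ck) 286000 288000 := RAll.of (by decide +kernel)
theorem hck_f17 : RAll (ck) 272000 288000 :=
  (RAll.append (RAll.append (RAll.append hck_f17_272000 hck_f17_274000) (RAll.append hck_f17_276000 hck_f17_278000)) (RAll.append (RAll.append hck_f17_280000 hck_f17_282000) (RAll.append hck_f17_284000 hck_f17_286000)))

end Cfsg.Agent.H15.M24c
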