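import Cfsg.Agent.H15.M24c.D
set_option autoImplicit false
set_option maxRecDepth 100000

namespace Cfsg.Agent.H15.M24c
open Cfsg.Agent.H15 Cfsg.Agent.H14

theorem hck_f18_288000 : RAll (ck) 288000 290000 := RAll.of (by decide +kernel)
theorem hck_f18_290000 : RAll (ck) 290000 292000 := RAll.of (by decide +kernel)
theorem hck_f18_292000 : RAll (ck) 292000 294000 := RAll.of (by decide +kernel)
theorem hck_f18_294000 : RAll (ck) 294000 296000 := RAll.of (by decide +kernel)
theorem hck_f18_296000 : RAll (ck) 296000 298000 := RAll.of (by decide +kernel)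
theorem hck_f18_298000 : RAll (ck) 298000 300000 := RAll.of (by decide +kernel)
theorem hck_f18_300000 : RAll (ck) 300000 302000 := RAll.of (by decide +kernel)
theorem hck_f18_302000 : RAll (ck) 302000 304000 := RAll.of (by decide +kernel)
theorem hck_f18 : RAll (ck) 288000 304000 :=
  (RAll.append (RAll.append (RAll.append hck_f18_288000 hck_f18_290000) (RAll.append hck_f18_292000 hck_f18_294000)) (RAll.append (RAll.append hck_f18_296000 hck_f18_298000) (RAll.append hck_f18_300000 hck_f18_302000)))

end Cfsg.Agent.H15.M24c
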