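import Cfsg.Agent.H15.M24c.D
set_option autoImplicit false
set_option maxRecDepth 100000

namespace Cfsg.Agent.H15.M24c
open Cfsg.Agent.H15 Cfsg.Agent.H14

theorem hck_f19_304000 : RAll (ck) 304000 306000 := RAll.of (by decide +kernel)
theorem hck_f19_306000 : RAll (ck) 306000 306936 := RAll.of (by decide +kernel)
theorem hck_f19 : RAll (ck) 304000 306936 :=
  (RAll.append hck_f19_304000 hck_f19_306000)

end Cfsg.Agent.H15.M24c
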