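import Cfsg.Agent.H15.M24c.D
set_option autoImplicit false
set_option maxRecDepth 100000
set_option Elab.async false

namespace Cfsg.Agent.H15.M24c
open Cfsg.Agent.H15 Cfsg.Agent.H14

theorem hck_f2_32000 : RAll (ck) 32000 34000 := RAll.of (by decide +kernel)
theorem hck_f2_34000 : RAll (ck) 34000 36000 := RAll.of (by decide +kernel)
theorem hck_f2_36000 : RAll (ck) 36000 38000 := RAll.of (by decide +kernel)
theorem hck_f2_38000 : RAll (ck) 38000 40000 := RAll.of (by decide +kernel)
theorem hck_f2_40000 : RAll (ck) 40000 42000 := RAll.of (by decide +kernel)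
theorem hck_f2_42000 : RAll (ck) 42000 44000 := RAll.of (by decide +kernel)
theorem hck_f2_44000 : RAll (ck) 44000 46000 := RAll.of (by decide +kernel)
theorem hck_f2_46000 : RAll (ck) 46000 48000 := RAll.of (by decide +kernel)
theorem hck_f2 : RAll (ck) 32000 48000 :=
  (RAll.append (RAll.append (RAll.append hck_f2_32000 hck_f2_34000) (RAll.append hck_f2_36000 hck_f2_38000)) (RAll.append (RAll.append hck_f2_40000 hck_f2_42000) (RAll.append hck_f2_44000 hck_f2_46000)))

end Cfsg.Agent.H15.M24c
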