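import Cfsg.Agent.H15.M24c.D
set_option autoImplicit false
set_option maxRecDepth 100000
set_option Elab.async false

namespace Cfsg.Agent.H15.M24c
open Cfsg.Agent.H15 Cfsg.Agent.H14

theorem hck_f3_48000 : RAll (ck) 48000 50000 := RAll.of (by decide +kernel)
theorem hck_f3_50000 : RAll (ck) 50000 52000 := RAll.of (by decide +kernel)
theorem hck_f3_52000 : RAll (ck) 52000 54000 := RAll.of (by decide +kernel)
theorem hck_f3_54000 : RAll (ck) 54000 56000 := RAll.of (by decide +kernel)
theorem hck_f3_56000 : RAll (ck) 56000 58000 := RAll.of (by decide +kernel)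
theorem hck_f3_58000 : RAll (ck) 58000 60000 := RAll.of (by decide +kernel)
theorem hck_f3_60000 : RAll (ck) 60000 62000 := RAll.of (by decide +kernel)
theorem hck_f3_62000 : RAll (ck) 62000 64000 := RAll.of (by decide +kernel)
theorem hck_f3 : RAll (ck) 48000 64000 :=
  (RAll.append (RAll.append (RAll.append hck_f3_48000 hck_f3_50000) (RAll.append hck_f3_52000 hck_f3_54000)) (RAll.append (RAll.append hck_f3_56000 hck_f3_58000) (RAll.append hck_f3_60000 hck_f3_62000)))

end Cfsg.Agent.H15.M24c
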