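import Cfsg.Agent.H15.M24c.D
set_option autoImplicit false
set_option maxRecDepth 100000
set_option Elab.async false

namespace Cfsg.Agent.H15.M24c
open Cfsg.Agent.H15 Cfsg.Agent.H14

theorem hck_f4_64000 : RAll (ck) 64000 66000 := RAll.of (by decide +kernel)
theorem hck_f4_66000 : RAll (ck) 66000 68000 := RAll.of (by decide +kernel)
theorem hck_f4_68000 : RAll (ck) 68000 70000 := RAll.of (by decide +kernel)
theorem hck_f4_70000 : RAll (ck) 70000 72000 := RAll.of (by decide +kernel)
theorem hck_f4_72000 : RAll (ck) 72000 74000 := RAll.of (by decide +kernel)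
theorem hck_f4_74000 : RAll (ck) 74000 76000 := RAll.of (by decide +kernel)
theorem hck_f4_76000 : RAll (ck) 76000 78000 := RAll.of (by decide +kernel)
theorem hck_f4_78000 : RAll (ck) 78000 80000 := RAll.of (by decide +kernel)
theorem hck_f4 : RAll (ck) 64000 80000 :=
  (RAll.append (RAll.append (RAll.append hck_f4_64000 hck_f4_66000) (RAll.append hck_f4_68000 hck_f4_70000)) (RAll.append (RAll.append hck_f4_72000 hck_f4_74000) (RAll.append hck_f4_76000 hck_f4_78000)))

end Cfsg.Agent.H15.M24c
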