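import Cfsg.Agent.H15.M24c.D
set_option autoImplicit false
set_option maxRecDepth 100000
set_option Elab.async false

namespace Cfsg.Agent.H15.M24c
open Cfsg.Agent.H15 Cfsg.Agent.H14

theorem hck_f5_80000 : RAll (ck) 80000 82000 := RAll.of (by decide +kernel)
theorem hck_f5_82000 : RAll (ck) 82000 84000 := RAll.of (by decide +kernel)
theorem hck_f5_84000 : RAll (ck) 84000 86000 := RAll.of (by decide +kernel)
theorem hck_f5_86000 : RAll (ck) 86000 88000 := RAll.of (by decide +kernel)
theorem hck_f5_88000 : RAll (ck) 88000 90000 := RAll.of (by decide +kernel)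
theorem hck_f5_90000 : RAll (ck) 90000 92000 := RAll.of (by decide +kernel)
theorem hck_f5_92000 : RAll (ck) 92000 94000 := RAll.of (by decide +kernel)
theorem hck_f5_94000 : RAll (ck) 94000 96000 := RAll.of (by decide +kernel)
theorem hck_f5 : RAll (ck) 80000 96000 :=
  (RAll.append (RAll.append (RAll.append hck_f5_80000 hck_f5_82000) (RAll.append hck_f5_84000 hck_f5_86000)) (RAll.append (RAll.append hck_f5_88000 hck_f5_90000) (RAll.append hck_f5_92000 hck_f5_94000)))

end Cfsg.Agent.H15.M24c
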