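import Cfsg.Agent.H15.M24c.D
set_option autoImplicit false
set_option maxRecDepth 100000
set_option Elab.async false

namespace Cfsg.Agent.H15.M24c
open Cfsg.Agent.H15 Cfsg.Agent.H14

theorem hck_f6_96000 : RAll (ck) 96000 98000 := RAll.of (by decide +kernel)
theorem hck_f6_98000 : RAll (ck) 98000 100000 := RAll.of (by decide +kernel)
theorem hck_f6_100000 : RAll (ck) 100000 102000 := RAll.of (by decide +kernel)
theorem hck_f6_102000 : RAll (ck) 102000 104000 := RAll.of (by decide +kernel)
theorem hck_f6_104000 : RAll (ck) 104000 106000 := RAll.of (by decide +kernel)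
theorem hck_f6_106000 : RAll (ck) 106000 108000 := RAll.of (by decide +kernel)
theorem hck_f6_108000 : RAll (ck) 108000 110000 := RAll.of (by decide +kernel)
theorem hck_f6_110000 : RAll (ck) 110000 112000 := RAll.of (by decide +kernel)
theorem hck_f6 : RAll (ck) 96000 112000 :=
  (RAll.append (RAll.append (RAll.append hck_f6_96000 hck_f6_98000) (RAll.append hck_f6_100000 hck_f6_102000)) (RAll.append (RAll.append hck_f6_104000 hck_f6_106000) (RAll.append hck_f6_108000 hck_f6_110000)))

end Cfsg.Agent.H15.M24c
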