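import Cfsg.Agent.H15.M24c.D
set_option autoImplicit false
set_option maxRecDepth 100000
set_option Elab.async false

namespace Cfsg.Agent.H15.M24c
open Cfsg.Agent.H15 Cfsg.Agent.H14

theorem hck_f7_112000 : RAll (ck) 112000 114000 := RAll.of (by decide +kernel)
theorem hck_f7_114000 : RAll (ck) 114000 116000 := RAll.of (by decide +kernel)
theorem hck_f7_116000 : RAll (ck) 116000 118000 := RAll.of (by decide +kernel)
theorem hck_f7_118000 : RAll (ck) 118000 120000 := RAll.of (by decide +kernel)
theorem hck_f7_120000 : RAll (ck) 120000 122000 := RAll.of (by decide +kernel)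
theorem hck_f7_122000 : RAll (ck) 122000 124000 := RAll.of (by decide +kernel)
theorem hck_f7_124000 : RAll (ck) 124000 126000 := RAll.of (by decide +kernel)
theorem hck_f7_126000 : RAll (ck) 126000 128000 := RAll.of (by decide +kernel)
theorem hck_f7 : RAll (ck) 112000 128000 :=
  (RAll.append (RAll.append (RAll.append hck_f7_112000 hck_f7_114000) (RAll.append hck_f7_116000 hck_f7_118000)) (RAll.append (RAll.append hck_f7_120000 hck_f7_122000) (RAll.append hck_f7_124000 hck_f7_126000)))

end Cfsg.Agent.H15.M24c
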