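import Cfsg.Agent.H15.M24c.D
set_option autoImplicit false
set_option maxRecDepth 100000
set_option Elab.async false

namespace Cfsg.Agent.H15.M24c
open Cfsg.Agent.H15 Cfsg.Agent.H14

theorem hck_f8_128000 : RAll (ck) 128000 130000 := RAll.of (by decide +kernel)
theorem hck_f8_130000 : RAll (ck) 130000 132000 := RAll.of (by decide +kernel)
theorem hck_f8_132000 : RAll (ck) 132000 134000 := RAll.of (by decide +kernel)
theorem hck_f8_134000 : RAll (ck) 134000 136000 := RAll.of (by decide +kernel)
theorem hck_f8_136000 : RAll (ck) 136000 138000 := RAll.of (by decide +kernel)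
theorem hck_f8_138000 : RAll (ck) 138000 140000 := RAll.of (by decide +kernel)
theorem hck_f8_140000 : RAll (ck) 140000 142000 := RAll.of (by decide +kernel)
theorem hck_f8_142000 : RAll (ck) 142000 144000 := RAll.of (by decide +kernel)
theorem hck_f8 : RAll (ck) 128000 144000 :=
  (RAll.append (RAll.append (RAll.append hck_f8_128000 hck_f8_130000) (RAll.append hck_f8_132000 hck_f8_134000)) (RAll.append (RAll.append hck_f8_136000 hck_f8_138000) (RAll.append hck_f8_140000 hck_f8_142000)))

end Cfsg.Agent.H15.M24c
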