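import Cfsg.Agent.H15.M24c.D
set_option autoImplicit false
set_option maxRecDepth 100000
set_option Elab.async false

namespace Cfsg.Agent.H15.M24c
open Cfsg.Agent.H15 Cfsg.Agent.H14

theorem hck_f9_144000 : RAll (ck) 144000 146000 := RAll.of (by decide +kernel)
theorem hck_f9_146000 : RAll (ck) 146000 148000 := RAll.of (by decide +kernel)
theorem hck_f9_148000 : RAll (ck) 148000 150000 := RAll.of (by decide +kernel)
theorem hck_f9_150000 : RAll (ck) 150000 152000 := RAll.of (by decide +kernel)
theorem hck_f9_152000 : RAll (ck) 152000 154000 := RAll.of (by decide +kernel)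
theorem hck_f9_154000 : RAll (ck) 154000 156000 := RAll.of (by decide +kernel)
theorem hck_f9_156000 : RAll (ck) 156000 158000 := RAll.of (by decide +kernel)
theorem hck_f9_158000 : RAll (ck) 158000 160000 := RAll.of (by decide +kernel)
theorem hck_f9 : RAll (ck) 144000 160000 :=
  (RAll.append (RAll.append (RAll.append hck_f9_144000 hck_f9_146000) (RAll.append hck_f9_148000 hck_f9_150000)) (RAll.append (RAll.append hck_f9_152000 hck_f9_154000) (RAll.append hck_f9_156000 hck_f9_158000)))

end Cfsg.Agent.H15.M24c
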