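import Cfsg.Agent.H15.M24c.R0
import Cfsg.Agent.H15.M24c.R1
import Cfsg.Agent.H15.M24c.R2
import Cfsg.Agent.H15.M24c.R3
import Cfsg.Agent.H15.M24c.R4
import Cfsg.Agent.H15.M24c.R5
import Cfsg.Agent.H15.M24c.R6
import Cfsg.Agent.H15.M24c.R7
import Cfsg.Agent.H15.M24c.R8
import Cfsg.Agent.H15.M24c.R9
import Cfsg.Agent.H15.M24c.R10
import Cfsg.Agent.H15.M24c.R11
import Cfsg.Agent.H15.M24c.R12
import Cfsg.Agent.H15.M24c.R13
import Cfsg.Agent.H15.M24c.R14
import Cfsg.Agent.H15.M24c.R15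
import Cfsg.Agent.H15.M24c.R16
import Cfsg.Agent.H15.M24c.R17
import Cfsg.Agent.H15.M24c.R18
import Cfsg.Agent.H15.M24c.R19
set_option autoImplicit false
set_option maxRecDepth 100000

namespace Cfsg.Agent.H15.M24c
open Cfsg.Agent.H15 Cfsg.Agent.H14

theorem hck : RAll (ck) 0 306936 :=
  (RAll.append (RAll.append (RAll.append (RAll.append hck_f0 hck_f1) (RAll.append hck_f2 (RAll.append hck_f3 hck_f4))) (RAll.append (RAll.append hck_f5 hck_f6) (RAll.append hck_f7 (RAll.append hck_f8 hck_f9)))) (RAll.append (RAll.append (RAll.append hck_f10 hck_f11) (RAll.append hck_f12 (RAll.append hck_f13 hck_f14))) (RAll.append (RAll.append hck_f15 hck_f16) (RAll.append hck_f17 (RAll.append hck_f18 hck_f19)))))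

end Cfsg.Agent.H15.M24c
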