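import Cfsg.Agent.H15.M24c.D
set_option autoImplicit false
set_option maxRecDepth 100000
set_option Elab.async false

namespace Cfsg.Agent.H15.M24c
open Cfsg.Agent.H15 Cfsg.Agent.H14

theorem hck_f0_0 : RAll (ck) 0 2000 := RAll.of (by decide +kernel)
theorem hck_f0_2000 : RAll (ck) 2000 4000 := RAll.of (by decide +kernel)
theorem hck_f0_4000 : RAll (ck) 4000 6000 := RAll.of (by decide +kernel)
theorem hck_f0_6000 : RAll (ck) 6000 8000 := RAll.of (by decide +kernel)
theorem hck_f0_8000 : RAll (ck) 8000 10000 := RAll.of (by decide +kernel)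
theorem hck_f0_10000 : RAll (ck) 10000 12000 := RAll.of (by decide +kernel)
theorem hck_f0_12000 : RAll (ck) 12000 14000 := RAll.of (by decide +kernel)
theorem hck_f0_14000 : RAll (ck) 14000 16000 := RAll.of (by decide +kernel)
theorem hck_f0 : RAll (ck) 0 16000 :=
  (RAll.append (RAll.append (RAll.append hck_f0_0 hck_f0_2000) (RAll.append hck_f0_4000 hck_f0_6000)) (RAll.append (RAll.append hck_f0_8000 hck_f0_10000) (RAll.append hck_f0_12000 hck_f0_14000)))

end Cfsg.Agent.H15.M24c
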