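import Cfsg.Agent.H15.M24c.D
set_option autoImplicit false
set_option maxRecDepth 100000

namespace Cfsg.Agent.H15.M24c
open Cfsg.Agent.H15 Cfsg.Agent.H14

theorem hck_f15_240000 : RAll (ck) 240000 242000 := RAll.of (by decide +kernel)
theorem hck_f15_242000 : RAll (ck) 242000 244000 := RAll.of (by decide +kernel)
theorem hck_f15_244000 : RAll (ck) 244000 246000 := RAll.of (by decide +kernel)
theorem hck_f15_246000 : RAll (ck) 246000 248000 := RAll.of (by decide +kernel)
theorem hck_f15_248000 : RAll (ck) 248000 250000 := RAll.of (by decide +kernel)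
theorem hck_f15_250000 : RAll (ck) 250000 252000 := RAll.of (by decide +kernel)
theorem hck_f15_252000 : RAll (ck) 252000 254000 := RAll.of (by decide +kernel)
theorem hck_f15_254000 : RAll (ck) 254000 256000 := RAll.of (by decide +kernel)
theorem hck_f15 : RAll (ck) 240000 256000 :=
  (RAll.append (RAll.append (RAll.append hck_f15_240000 hck_f15_242000) (RAll.append hck_f15_244000 hck_f15_246000)) (RAll.append (RAll.append hck_f15_248000 hck_f15_250000) (RAll.append hck_f15_252000 hck_f15_254000)))

end Cfsg.Agent.H15.M24c
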